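import Cfsg.Agent.Lib.Schur.Cert.Fi24p3.D

set_option autoImplicit false
set_option maxRecDepth 100000
set_option maxHeartbeats 0
set_option Elab.async false

namespace Cfsg.Agent.Lib.Schur.Cert.Fi24p3

open Cfsg.Agent.Lib.Schur.PcMain Cfsg.Agent.Lib.Schur.PcBase Cfsg.Agent.Lib.Schur.PcCert Cfsg.Agent.Lib.Schur.PcSplit

theorem ck_tb : C.chkTable = true := by decide +kernel

theorem ck_df : C.chkDefs = true := by decide +kernel

theorem ck_ov : C.chkOvs = true := by decide +kernel


end Cfsg.Agent.Lib.Schur.Cert.Fi24p3
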