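import Cfsg.Agent.Lib.Schur.Cert.Fi24p3.D

set_option autoImplicit false
set_option maxRecDepth 100000
set_option maxHeartbeats 0
set_option Elab.async false

namespace Cfsg.Agent.Lib.Schur.Cert.Fi24p3

open Cfsg.Agent.Lib.Schur.PcMain Cfsg.Agent.Lib.Schur.PcBase Cfsg.Agent.Lib.Schur.PcCert Cfsg.Agent.Lib.Schur.PcSplit

theorem ck_fr0 : decide (fusVec C.sys C.fuel (C.lett fr_0.1) (C.letb fr_0.1) (Cert.foff fr_0.1) fr_0.2.1 fr_0.2.2.1 = some fr_0.2.2.2) = true := by decide +kernel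

theorem ck_fr1 : decide (fusVec C.sys C.fuel (C.lett fr_1.1) (C.letb fr_1.1) (Cert.foff fr_1.1) fr_1.2.1 fr_1.2.2.1 = some fr_1.2.2.2) = true := by decide +kernel

theorem ck_fr2 : decide (fusVec C.sys C.fuel (C.lett fr_2.1) (C.letb fr_2.1) (Cert.foff fr_2.1) fr_2.2.1 fr_2.2.2.1 = some fr_2.2.2.2) = true := by decide +kernel

theorem ck_fr3 : decide (fusVec C.sys C.fuel (C.lett fr_3.1) (C.letb fr_3.1) (Cert.foff fr_3.1) fr_3.2.1 fr_3.2.2.1 = some fr_3.2.2.2) = true := by decide +kernel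

theorem ck_fr4 : decide (fusVec C.sys C.fuel (C.lett fr_4.1) (C.letb fr_4.1) (Cert.foff fr_4.1) fr_4.2.1 fr_4.2.2.1 = some fr_4.2.2.2) = true := by decide +kernel

theorem ck_fr5 : decide (fusVec C.sys C.fuel (C.lett fr_5.1) (C.letb fr_5.1) (Cert.foff fr_5.1) fr_5.2.1 fr_5.2.2.1 = some fr_5.2.2.2) = true := by decide +kernel

theorem ck_fr6 : decide (fusVec C.sys C.fuel (C.lett fr_6.1) (C.letb fr_6.1) (Cert.foff fr_6.1) fr_6.2.1 fr_6.2.2.1 = some fr_6.2.2.2) = true := by decide +kernel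

theorem ck_fr7 : decide (fusVec C.sys C.fuel (C.lett fr_7.1) (C.letb fr_7.1) (Cert.foff fr_7.1) fr_7.2.1 fr_7.2.2.1 = some fr_7.2.2.2) = true := by decide +kernel


end Cfsg.Agent.Lib.Schur.Cert.Fi24p3
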