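import Cfsg.Agent.Lib.Schur.Cert.Fi24p3.D

set_option autoImplicit false
set_option maxRecDepth 100000
set_option maxHeartbeats 0
set_option Elab.async false

namespace Cfsg.Agent.Lib.Schur.Cert.Fi24p3

open Cfsg.Agent.Lib.Schur.PcMain Cfsg.Agent.Lib.Schur.PcBase Cfsg.Agent.Lib.Schur.PcCert Cfsg.Agent.Lib.Schur.PcSplit

theorem ck_fr8 : decide (fusVec C.sys C.fuel (C.lett fr_8.1) (C.letb fr_8.1) (Cert.foff fr_8.1) fr_8.2.1 fr_8.2.2.1 = some fr_8.2.2.2) = true := by decide +kernel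

theorem ck_fr9 : decide (fusVec C.sys C.fuel (C.lett fr_9.1) (C.letb fr_9.1) (Cert.foff fr_9.1) fr_9.2.1 fr_9.2.2.1 = some fr_9.2.2.2) = true := by decide +kernel

theorem ck_fr10 : decide (fusVec C.sys C.fuel (C.lett fr_10.1) (C.letb fr_10.1) (Cert.foff fr_10.1) fr_10.2.1 fr_10.2.2.1 = some fr_10.2.2.2) = true := by decide +kernel

theorem ck_fr11 : decide (fusVec C.sys C.fuel (C.lett fr_11.1) (C.letb fr_11.1) (Cert.foff fr_11.1) fr_11.2.1 fr_11.2.2.1 = some fr_11.2.2.2) = true := by decide +kernel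

theorem ck_fr12 : decide (fusVec C.sys C.fuel (C.lett fr_12.1) (C.letb fr_12.1) (Cert.foff fr_12.1) fr_12.2.1 fr_12.2.2.1 = some fr_12.2.2.2) = true := by decide +kernel

theorem ck_fr13 : decide (fusVec C.sys C.fuel (C.lett fr_13.1) (C.letb fr_13.1) (Cert.foff fr_13.1) fr_13.2.1 fr_13.2.2.1 = some fr_13.2.2.2) = true := by decide +kernel

theorem ck_fr14 : decide (fusVec C.sys C.fuel (C.lett fr_14.1) (C.letb fr_14.1) (Cert.foff fr_14.1) fr_14.2.1 fr_14.2.2.1 = some fr_14.2.2.2) = true := by decide +kernel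

theorem ck_fr15 : decide (fusVec C.sys C.fuel (C.lett fr_15.1) (C.letb fr_15.1) (Cert.foff fr_15.1) fr_15.2.1 fr_15.2.2.1 = some fr_15.2.2.2) = true := by decide +kernel

theorem ck_fr16 : decide (fusVec C.sys C.fuel (C.lett fr_16.1) (C.letb fr_16.1) (Cert.foff fr_16.1) fr_16.2.1 fr_16.2.2.1 = some fr_16.2.2.2) = true := by decide +kernel


end Cfsg.Agent.Lib.Schur.Cert.Fi24p3
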