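import Cfsg.Agent.Lib.Schur.Cert.Fi24p3.D

set_option autoImplicit false
set_option maxRecDepth 100000
set_option maxHeartbeats 0
set_option Elab.async false

namespace Cfsg.Agent.Lib.Schur.Cert.Fi24p3

open Cfsg.Agent.Lib.Schur.PcMain Cfsg.Agent.Lib.Schur.PcBase Cfsg.Agent.Lib.Schur.PcCert Cfsg.Agent.Lib.Schur.PcSplit

theorem ck_fr17 : decide (fusVec C.sys C.fuel (C.lett fr_17.1) (C.letb fr_17.1) (Cert.foff fr_17.1) fr_17.2.1 fr_17.2.2.1 = some fr_17.2.2.2) = true := by decide +kernel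

theorem ck_fr18 : decide (fusVec C.sys C.fuel (C.lett fr_18.1) (C.letb fr_18.1) (Cert.foff fr_18.1) fr_18.2.1 fr_18.2.2.1 = some fr_18.2.2.2) = true := by decide +kernel

theorem ck_fr19 : decide (fusVec C.sys C.fuel (C.lett fr_19.1) (C.letb fr_19.1) (Cert.foff fr_19.1) fr_19.2.1 fr_19.2.2.1 = some fr_19.2.2.2) = true := by decide +kernel

theorem ck_fr20 : decide (fusVec C.sys C.fuel (C.lett fr_20.1) (C.letb fr_20.1) (Cert.foff fr_20.1) fr_20.2.1 fr_20.2.2.1 = some fr_20.2.2.2) = true := by decide +kernel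

theorem ck_fr21 : decide (fusVec C.sys C.fuel (C.lett fr_21.1) (C.letb fr_21.1) (Cert.foff fr_21.1) fr_21.2.1 fr_21.2.2.1 = some fr_21.2.2.2) = true := by decide +kernel

theorem ck_fr22 : decide (fusVec C.sys C.fuel (C.lett fr_22.1) (C.letb fr_22.1) (Cert.foff fr_22.1) fr_22.2.1 fr_22.2.2.1 = some fr_22.2.2.2) = true := by decide +kernel

theorem ck_fr23 : decide (fusVec C.sys C.fuel (C.lett fr_23.1) (C.letb fr_23.1) (Cert.foff fr_23.1) fr_23.2.1 fr_23.2.2.1 = some fr_23.2.2.2) = true := by decide +kernel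

theorem ck_fr24 : decide (fusVec C.sys C.fuel (C.lett fr_24.1) (C.letb fr_24.1) (Cert.foff fr_24.1) fr_24.2.1 fr_24.2.2.1 = some fr_24.2.2.2) = true := by decide +kernel

theorem ck_fr25 : decide (fusVec C.sys C.fuel (C.lett fr_25.1) (C.letb fr_25.1) (Cert.foff fr_25.1) fr_25.2.1 fr_25.2.2.1 = some fr_25.2.2.2) = true := by decide +kernel


end Cfsg.Agent.Lib.Schur.Cert.Fi24p3
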