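import Cfsg.Agent.Lib.Schur.Cert.Fi24p3.D

set_option autoImplicit false
set_option maxRecDepth 100000
set_option maxHeartbeats 0
set_option Elab.async false

namespace Cfsg.Agent.Lib.Schur.Cert.Fi24p3

open Cfsg.Agent.Lib.Schur.PcMain Cfsg.Agent.Lib.Schur.PcBase Cfsg.Agent.Lib.Schur.PcCert Cfsg.Agent.Lib.Schur.PcSplit

theorem ck_fr26 : decide (fusVec C.sys C.fuel (C.lett fr_26.1) (C.letb fr_26.1) (Cert.foff fr_26.1) fr_26.2.1 fr_26.2.2.1 = some fr_26.2.2.2) = true := by decide +kernel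

theorem ck_fr27 : decide (fusVec C.sys C.fuel (C.lett fr_27.1) (C.letb fr_27.1) (Cert.foff fr_27.1) fr_27.2.1 fr_27.2.2.1 = some fr_27.2.2.2) = true := by decide +kernel

theorem ck_fr28 : decide (fusVec C.sys C.fuel (C.lett fr_28.1) (C.letb fr_28.1) (Cert.foff fr_28.1) fr_28.2.1 fr_28.2.2.1 = some fr_28.2.2.2) = true := by decide +kernel

theorem ck_fr29 : decide (fusVec C.sys C.fuel (C.lett fr_29.1) (C.letb fr_29.1) (Cert.foff fr_29.1) fr_29.2.1 fr_29.2.2.1 = some fr_29.2.2.2) = true := by decide +kernel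

theorem ck_fr30 : decide (fusVec C.sys C.fuel (C.lett fr_30.1) (C.letb fr_30.1) (Cert.foff fr_30.1) fr_30.2.1 fr_30.2.2.1 = some fr_30.2.2.2) = true := by decide +kernel

theorem ck_fr31 : decide (fusVec C.sys C.fuel (C.lett fr_31.1) (C.letb fr_31.1) (Cert.foff fr_31.1) fr_31.2.1 fr_31.2.2.1 = some fr_31.2.2.2) = true := by decide +kernel

theorem ck_fr32 : decide (fusVec C.sys C.fuel (C.lett fr_32.1) (C.letb fr_32.1) (Cert.foff fr_32.1) fr_32.2.1 fr_32.2.2.1 = some fr_32.2.2.2) = true := by decide +kernel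

theorem ck_fr33 : decide (fusVec C.sys C.fuel (C.lett fr_33.1) (C.letb fr_33.1) (Cert.foff fr_33.1) fr_33.2.1 fr_33.2.2.1 = some fr_33.2.2.2) = true := by decide +kernel

theorem ck_fr34 : decide (fusVec C.sys C.fuel (C.lett fr_34.1) (C.letb fr_34.1) (Cert.foff fr_34.1) fr_34.2.1 fr_34.2.2.1 = some fr_34.2.2.2) = true := by decide +kernel


end Cfsg.Agent.Lib.Schur.Cert.Fi24p3
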