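import Cfsg.Agent.Lib.Schur.Cert.Fi24p3.D
import Cfsg.Agent.Lib.Schur.PcLevSplit

set_option autoImplicit false
set_option maxRecDepth 100000
set_option maxHeartbeats 0
set_option Elab.async false

namespace Cfsg.Agent.Lib.Schur.Cert.Fi24p3

open Cfsg.Agent.Lib.Schur.PcMain Cfsg.Agent.Lib.Schur.PcBase Cfsg.Agent.Lib.Schur.PcCert Cfsg.Agent.Lib.Schur.PcSplit

theorem hlev0 : chkLev Cfsg.Agent.Lib.TC.D.Fi24a.Tab.pt wE [] [(lv.getD 0 (0, []))] = true := by decide +kernel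

theorem hlev1 : chkLev Cfsg.Agent.Lib.TC.D.Fi24a.Tab.pt wE [(lv.getD 0 (0, [])).1] [(lv.getD 1 (0, []))] = true := by decide +kernel

theorem hlev2 : chkLev Cfsg.Agent.Lib.TC.D.Fi24a.Tab.pt wE [(lv.getD 1 (0, [])).1, (lv.getD 0 (0, [])).1] [(lv.getD 2 (0, []))] = true := by decide +kernel

theorem hlev3 : chkLev Cfsg.Agent.Lib.TC.D.Fi24a.Tab.pt wE [(lv.getD 2 (0, [])).1, (lv.getD 1 (0, [])).1, (lv.getD 0 (0, [])).1] [(lv.getD 3 (0, []))] = true := by decide +kernel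

theorem lv_eq : lv = [(lv.getD 0 (0, [])), (lv.getD 1 (0, [])), (lv.getD 2 (0, [])), (lv.getD 3 (0, []))] := by decide +kernel

theorem hlev : chkLev Cfsg.Agent.Lib.TC.D.Fi24a.Tab.pt wE [] lv = true := by
  rw [lv_eq]
  refine Cfsg.Agent.Lib.Schur.PcLevSplit.chkLev_cons hlev0 (Cfsg.Agent.Lib.Schur.PcLevSplit.chkLev_cons hlev1
    (Cfsg.Agent.Lib.Schur.PcLevSplit.chkLev_cons hlev2 hlev3))


end Cfsg.Agent.Lib.Schur.Cert.Fi24p3
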